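import Mathlib
import Cfsg.Agent.Lib.Helper14.Spec.Defs

/-!
# SPEC package [DECOMP]: fixed space and its orthogonal complement for an isometry `x` with
`x ^ r = 1`, `r` invertible in the field.  `V₁ = ker (x - 1)`, `W = range (x - 1)`.
-/

set_option autoImplicit false

namespace Cfsg.Agent.Lib.Helper85.Spec

open Cfsg.Agent.Lib.Helper14.Spec Module

universe u

theorem pkgDecomp : PkgDecomp.{u} := by
  intro F _ V _ _ _ Q hQ r x hr hxr hiso
  have hpol : ∀ a b, QuadraticMap.polar ⇑Q (x a) (x b) = QuadraticMap.polar ⇑Q a b := by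
    intro a b
    unfold QuadraticMap.polar
    rw [← map_add, hiso, hiso, hiso]
  set n : V →ₗ[F] V := x - 1 with hn
  have hn_apply : ∀ v, n v = x v - v := fun v => by simp [hn]
  have hpow : ∀ (u : V), x (x u - u) = x u - u →
      ∀ k : ℕ, (x ^ k) u = u + (k : F) • (x u - u) := by
    intro u hu k
    induction k with
    | zero => simp
    | succ k ih =>
      rw [pow_succ', Module.End.mul_apply, ih, map_add, map_smul, hu]
      push_cast
      rw [add_smul, one_smul]
      abel
  have hdisj : ∀ v, v ∈ LinearMap.range n → v ∈ LinearMap.ker n → v = 0 := by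
    intro v hv1 hv2
    obtain ⟨u, rfl⟩ := hv1
    rw [LinearMap.mem_ker, hn_apply] at hv2
    rw [hn_apply] at hv2 ⊢
    have hfix : x (x u - u) = x u - u := sub_eq_zero.mp hv2
    have h1 := hpow u hfix r
    rw [hxr, Module.End.one_apply] at h1
    have h2 : (r : F) • (x u - u) = 0 := by
      have : u + (r : F) • (x u - u) = u + 0 := by rw [add_zero]; exact h1.symm
      exact add_left_cancel this
    exact (smul_eq_zero.mp h2).resolve_left hr
  have hfixV : ∀ v, v ∈ LinearMap.ker n → x v = v := by
    intro v hv
    have := LinearMap.mem_ker.mp hv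
    rw [hn_apply] at this
    exact sub_eq_zero.mp this
  have hdisjoint : Disjoint (LinearMap.range n) (LinearMap.ker n) := by
    rw [Submodule.disjoint_def]
    exact hdisj
  have hcompl : IsCompl (LinearMap.range n) (LinearMap.ker n) := by
    refine (Submodule.isCompl_iff_disjoint _ _ ?_).mpr hdisjoint
    exact (LinearMap.finrank_range_add_finrank_ker n).ge
  have hortho : ∀ w ∈ LinearMap.range n, ∀ v ∈ LinearMap.ker n,
      QuadraticMap.polar ⇑Q w v = 0 := by
    intro w hw v hv
    obtain ⟨u, rfl⟩ := hw
    have hxv : x v = v := hfixV v hv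
    rw [hn_apply, QuadraticMap.polar_sub_left]
    have h1 : QuadraticMap.polar ⇑Q (x u) v = QuadraticMap.polar ⇑Q u v := by
      have := hpol u v
      rwa [hxv] at this
    rw [h1, sub_self]
  have hdecomp : ∀ z : V, ∃ a ∈ LinearMap.range n, ∃ b ∈ LinearMap.ker n, a + b = z := by
    intro z
    have : z ∈ LinearMap.range n ⊔ LinearMap.ker n := by rw [hcompl.sup_eq_top]; trivial
    exact Submodule.mem_sup.mp this
  refine ⟨LinearMap.range n, LinearMap.ker n, hcompl, hortho, hfixV, ?_, ?_, ?_, ?_⟩
  · intro w hw hxw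
    apply hdisj w hw
    rw [LinearMap.mem_ker, hn_apply, hxw, sub_self]
  · intro t ht
    constructor
    · intro w hw
      obtain ⟨u, rfl⟩ := hw
      refine ⟨t u, ?_⟩
      rw [hn_apply, hn_apply, map_sub, ht]
    · intro v hv
      have hxv : x v = v := hfixV v hv
      rw [LinearMap.mem_ker, hn_apply, ← ht, hxv, sub_self]
  · have hrefl : (QuadraticMap.polarBilin (Q.restrict (LinearMap.range n))).IsRefl := by
      intro a b hab
      have : QuadraticMap.polar ⇑(Q.restrict (LinearMap.range n)) b a
          = QuadraticMap.polar ⇑(Q.restrict (LinearMap.range n)) a b :=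
        QuadraticMap.polar_comm _ _ _
      exact this.trans hab
    rw [LinearMap.IsRefl.nondegenerate_iff_separatingLeft hrefl]
    intro w hw
    have hw0 : (w : V) = 0 := by
      apply hQ.1
      intro z
      obtain ⟨a, ha, b, hb, rfl⟩ := hdecomp z
      change QuadraticMap.polar ⇑Q (w : V) (a + b) = 0
      rw [QuadraticMap.polar_add_right]
      have h1 : QuadraticMap.polar ⇑Q (w : V) a = 0 := hw ⟨a, ha⟩
      have h2 : QuadraticMap.polar ⇑Q (w : V) b = 0 := hortho w w.2 b hb
      rw [h1, h2, add_zero]
    exact Subtype.ext hw0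
  · have hrefl : (QuadraticMap.polarBilin (Q.restrict (LinearMap.ker n))).IsRefl := by
      intro a b hab
      have : QuadraticMap.polar ⇑(Q.restrict (LinearMap.ker n)) b a
          = QuadraticMap.polar ⇑(Q.restrict (LinearMap.ker n)) a b :=
        QuadraticMap.polar_comm _ _ _
      exact this.trans hab
    rw [LinearMap.IsRefl.nondegenerate_iff_separatingLeft hrefl]
    intro w hw
    have hw0 : (w : V) = 0 := by
      apply hQ.1
      intro z
      obtain ⟨a, ha, b, hb, rfl⟩ := hdecomp z
      change QuadraticMap.polar ⇑Q (w : V) (a + b) = 0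
      rw [QuadraticMap.polar_add_right]
      have h1 : QuadraticMap.polar ⇑Q (w : V) a = 0 := by
        rw [QuadraticMap.polar_comm]
        exact hortho a ha w w.2
      have h2 : QuadraticMap.polar ⇑Q (w : V) b = 0 := hw ⟨b, hb⟩
      rw [h1, h2, add_zero]
    exact Subtype.ext hw0

end Cfsg.Agent.Lib.Helper85.Spec
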