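import Mathlib
import Cfsg.Agent.Lib.Helper14.Spec.Defs

/-!
# SPEC package [DETSUM]: the determinant of an endomorphism preserving two complementary
subspaces is the product of the determinants of its restrictions.
-/

set_option autoImplicit false

namespace Cfsg.Agent.Lib.Helper85.Spec

open Cfsg.Agent.Lib.Helper14.Spec

universe u

theorem pkgDetSum : PkgDetSum.{u} := by
  intro F _ V _ _ _ W V₁ h f hW hV
  have key : ((Submodule.prodEquivOfIsCompl W V₁ h : (W × V₁) →ₗ[F] V) ∘ₗ
      ((f.restrict hW).prodMap (f.restrict hV)) ∘ₗ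
      ((Submodule.prodEquivOfIsCompl W V₁ h).symm : V →ₗ[F] (W × V₁))) = f := by
    apply LinearMap.ext
    intro v
    obtain ⟨⟨w, v1⟩, rfl⟩ := (Submodule.prodEquivOfIsCompl W V₁ h).surjective v
    simp [Submodule.coe_prodEquivOfIsCompl', LinearMap.restrict_apply]
  calc LinearMap.det f
      = LinearMap.det ((Submodule.prodEquivOfIsCompl W V₁ h : (W × V₁) →ₗ[F] V) ∘ₗ
          ((f.restrict hW).prodMap (f.restrict hV)) ∘ₗ
          ((Submodule.prodEquivOfIsCompl W V₁ h).symm : V →ₗ[F] (W × V₁))) := by rw [key]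
    _ = LinearMap.det ((f.restrict hW).prodMap (f.restrict hV)) :=
        LinearMap.det_conj _ (Submodule.prodEquivOfIsCompl W V₁ h)
    _ = _ := LinearMap.det_prodMap _ _

end Cfsg.Agent.Lib.Helper85.Spec
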