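import Mathlib
import Cfsg.Agent.Lib.Helper14.Spec.Defs

/-!
# SPEC package [O3]: in a non-degenerate quadratic space of dimension three in odd
characteristic `p`, an isometry of order prime to `p` commuting with a non-trivial isometry of
order `p` is `±1`.
-/

set_option autoImplicit false

namespace Cfsg.Agent.Lib.Helper85.Spec

open Cfsg.Agent.Lib.Helper14.Spec Module

universe u

/-- A unipotent isometry `u = 1 + N` (`u ≠ 1`) of a non-degenerate quadratic space of dimension
three, `2 ≠ 0`, has `N ^ 2 ≠ 0`. -/
theorem o3_sq_ne_zero {F : Type u} [Field F] {V : Type u} [AddCommGroup V] [Module F V]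
    [FiniteDimensional F V] (h2 : (2 : F) ≠ 0) (Q : QuadraticForm F V)
    (hQ : (QuadraticMap.polarBilin Q).Nondegenerate) (hfin : finrank F V = 3)
    (u : V →ₗ[F] V) (hu : ∀ v, Q (u v) = Q v) (hu1 : u ≠ 1) :
    ∃ v : V, (u - 1) ((u - 1) v) ≠ 0 := by
  by_contra hcon
  push Not at hcon
  set N : V →ₗ[F] V := u - 1 with hN
  have hNapp : ∀ a, N a = u a - a := fun a => by simp [hN]
  have hpolu : ∀ a b, QuadraticMap.polar ⇑Q (u a) (u b) = QuadraticMap.polar ⇑Q a b := by
    intro a b
    unfold QuadraticMap.polar
    rw [← map_add, hu, hu, hu]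
  have hi : ∀ a b, QuadraticMap.polar ⇑Q (N a) b + QuadraticMap.polar ⇑Q a (N b)
      + QuadraticMap.polar ⇑Q (N a) (N b) = 0 := by
    intro a b
    have h := hpolu a b
    have ha : u a = a + N a := by rw [hNapp]; abel
    have hb : u b = b + N b := by rw [hNapp]; abel
    rw [ha, hb, QuadraticMap.polar_add_left, QuadraticMap.polar_add_right,
      QuadraticMap.polar_add_right] at h
    linear_combination h
  have hii : ∀ a b, QuadraticMap.polar ⇑Q (N a) (N b) = 0 := by
    intro a b
    have h := hi a (N b)
    rw [hcon b, QuadraticMap.polar_zero_right, QuadraticMap.polar_zero_right] at h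
    linear_combination h
  have hi' : ∀ a b, QuadraticMap.polar ⇑Q (N a) b + QuadraticMap.polar ⇑Q a (N b) = 0 := by
    intro a b
    have h := hi a b
    rw [hii a b] at h
    linear_combination h
  have hiii : ∀ a, QuadraticMap.polar ⇑Q (N a) a = 0 := by
    intro a
    have h := hi' a a
    rw [QuadraticMap.polar_comm ⇑Q a (N a)] at h
    have h' : (2 : F) * QuadraticMap.polar ⇑Q (N a) a = 0 := by linear_combination h
    exact (mul_eq_zero.mp h').resolve_left h2
  -- the range of `N` has dimension at most one
  have hle : LinearMap.range N ≤ LinearMap.ker N := by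
    rintro w ⟨a, rfl⟩
    exact LinearMap.mem_ker.mpr (hcon a)
  have hdim : finrank F (LinearMap.range N) ≤ 1 := by
    have h1 := LinearMap.finrank_range_add_finrank_ker N
    have h2' := Submodule.finrank_mono hle
    omega
  obtain ⟨v0, hv0⟩ := finrank_le_one_iff.mp hdim
  -- `N ≠ 0`
  obtain ⟨a, ha⟩ : ∃ a, N a ≠ 0 := by
    by_contra hall
    push Not at hall
    apply hu1
    apply LinearMap.ext
    intro w
    have := hall w
    rw [hNapp] at this
    simpa using sub_eq_zero.mp this
  obtain ⟨α, hα⟩ := hv0 ⟨N a, LinearMap.mem_range_self N a⟩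
  have hα' : α • (v0 : V) = N a := by
    have := congrArg Subtype.val hα
    simpa using this
  have hα0 : α ≠ 0 := by
    rintro rfl
    rw [zero_smul] at hα'
    exact ha hα'.symm
  apply ha
  apply hQ.1
  intro c
  obtain ⟨γ, hγ⟩ := hv0 ⟨N c, LinearMap.mem_range_self N c⟩
  have hγ' : γ • (v0 : V) = N c := by
    have := congrArg Subtype.val hγ
    simpa using this
  have hNc : N c = (γ * α⁻¹) • N a := by
    rw [← hγ', ← hα', smul_smul, mul_assoc, inv_mul_cancel₀ hα0, mul_one]
  change QuadraticMap.polar ⇑Q (N a) c = 0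
  have h := hi' a c
  rw [hNc, QuadraticMap.polar_smul_right, QuadraticMap.polar_comm ⇑Q a (N a), hiii a,
    smul_zero, add_zero] at h
  exact h

theorem pkgO3 : PkgO3.{u} := by
  intro F _ V _ _ _ p hp _ hp2 Q hQ hfin u s m hu hs hup hu1 hsu hmp hsm
  have hp3 : 3 ≤ p := by
    have := (Fact.out : p.Prime).two_le
    omega
  have h2 : (2 : F) ≠ 0 := by
    intro h
    have h' : ((2 : ℕ) : F) = 0 := by exact_mod_cast h
    rw [CharP.cast_eq_zero_iff F p 2] at h'
    have := Nat.le_of_dvd (by norm_num) h'
    omega
  haveI : Nontrivial V := Module.nontrivial_of_finrank_pos (R := F) (by omega)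
  have hinj : Function.Injective (algebraMap F (Module.End F V)) := by
    intro a b hab
    obtain ⟨v0, hv0⟩ := exists_ne (0 : V)
    have h := congrArg (fun f : Module.End F V => f v0) hab
    simp only [Module.algebraMap_end_apply] at h
    exact smul_left_injective F hv0 h
  haveI : CharP (Module.End F V) p := charP_of_injective_algebraMap hinj p
  set N : V →ₗ[F] V := u - 1 with hN
  have hNapp : ∀ a, N a = u a - a := fun a => by simp [hN]
  have hNp : N ^ p = 0 := by
    rw [hN, sub_pow_char_of_commute p (Commute.one_right u), hup, one_pow,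
      sub_self]
  have hN3 : N ^ 3 = 0 := by
    have hle : finrank F V ≤ p := by rw [hfin]; exact hp3
    have hk := Module.End.ker_pow_eq_ker_pow_finrank_of_le (f := N) hle
    rw [hNp, hfin, LinearMap.ker_zero] at hk
    exact LinearMap.ker_eq_top.mp hk.symm
  have hN3v : ∀ w, N (N (N w)) = 0 := by
    intro w
    have := congrArg (fun f : Module.End F V => f w) hN3
    simpa [pow_succ, Module.End.mul_apply] using this
  obtain ⟨v, hv⟩ := o3_sq_ne_zero h2 Q hQ hfin u hu hu1
  rw [← hN] at hv
  -- `s` commutes with `N`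
  have hsN : ∀ w, s (N w) = N (s w) := by
    intro w
    have h := congrArg (fun f : Module.End F V => f w) hsu
    simp only [Module.End.mul_apply] at h
    rw [hNapp, hNapp, map_sub, h]
  -- the basis `v, N v, N (N v)`
  have hli : LinearIndependent F ![v, N v, N (N v)] := by
    rw [Fintype.linearIndependent_iff]
    intro g hg
    rw [Fin.sum_univ_three] at hg
    simp only [Matrix.cons_val_zero, Matrix.cons_val_one, Matrix.cons_val_two,
      Matrix.head_cons, Matrix.tail_cons] at hg
    have e0 : g 0 = 0 := by
      have h := congrArg (fun w => N (N w)) hg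
      simp only [map_add, map_smul, hN3v, smul_zero, add_zero, map_zero] at h
      exact (smul_eq_zero.mp h).resolve_right hv
    have e1 : g 1 = 0 := by
      have h := congrArg (fun w => N w) hg
      simp only [map_add, map_smul, hN3v, smul_zero, add_zero, map_zero, e0, zero_smul,
        zero_add] at h
      exact (smul_eq_zero.mp h).resolve_right hv
    have e2 : g 2 = 0 := by
      rw [e0, e1, zero_smul, zero_smul, zero_add, zero_add] at hg
      exact (smul_eq_zero.mp hg).resolve_right hv
    intro i
    fin_cases i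
    · exact e0
    · exact e1
    · exact e2
  have hspan : Submodule.span F (Set.range ![v, N v, N (N v)]) = ⊤ :=
    hli.span_eq_top_of_card_eq_finrank' (by simp [hfin])
  obtain ⟨g, hg⟩ : ∃ g : Fin 3 → F, ∑ i, g i • (![v, N v, N (N v)] : Fin 3 → V) i = s v := by
    rw [← Submodule.mem_span_range_iff_exists_fun, hspan]
    trivial
  rw [Fin.sum_univ_three] at hg
  simp only [Matrix.cons_val_zero, Matrix.cons_val_one, Matrix.cons_val_two,
    Matrix.head_cons, Matrix.tail_cons] at hg
  -- `s = a + b N + c N²`
  have hS : ∀ w, (g 0 • (1 : Module.End F V) + N * (g 1 • (1 : Module.End F V) + g 2 • N)) w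
      = g 0 • w + g 1 • N w + g 2 • N (N w) := by
    intro w
    simp only [LinearMap.add_apply, LinearMap.smul_apply, Module.End.one_apply,
      Module.End.mul_apply, map_add, map_smul]
    rw [add_assoc]
  have h0 : s v = (g 0 • (1 : Module.End F V) + N * (g 1 • (1 : Module.End F V) + g 2 • N)) v := by
    rw [hS, hg]
  have h1 : s (N v)
      = (g 0 • (1 : Module.End F V) + N * (g 1 • (1 : Module.End F V) + g 2 • N)) (N v) := by
    rw [hS, hsN, ← hg]
    simp only [map_add, map_smul, hN3v, smul_zero, add_zero]
  have h2' : s (N (N v))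
      = (g 0 • (1 : Module.End F V) + N * (g 1 • (1 : Module.End F V) + g 2 • N)) (N (N v)) := by
    rw [hS, hsN, hsN, ← hg]
    simp only [map_add, map_smul, hN3v, smul_zero, add_zero, map_zero]
  have hsrep : s = g 0 • (1 : Module.End F V) + N * (g 1 • (1 : Module.End F V) + g 2 • N) := by
    apply LinearMap.ext_on_range hspan
    intro i
    fin_cases i
    · exact h0
    · exact h1
    · exact h2'
  -- `(s - a) ^ p = 0`
  have hcomm : Commute N (g 1 • (1 : Module.End F V) + g 2 • N) := by
    apply Commute.add_right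
    · exact (Commute.one_right N).smul_right _
    · exact (Commute.refl N).smul_right _
  have hD3 : (s - g 0 • (1 : Module.End F V)) ^ 3 = 0 := by
    have hD : s - g 0 • (1 : Module.End F V) = N * (g 1 • (1 : Module.End F V) + g 2 • N) := by
      rw [hsrep]; abel
    rw [hD, hcomm.mul_pow, hN3, zero_mul]
  have hDp : (s - g 0 • (1 : Module.End F V)) ^ p = 0 := by
    obtain ⟨k, rfl⟩ : ∃ k, p = 3 + k := ⟨p - 3, by omega⟩
    rw [pow_add, hD3, zero_mul]
  have hsp : s ^ p = (g 0 ^ p) • (1 : Module.End F V) := by
    have hc : Commute s (g 0 • (1 : Module.End F V)) := (Commute.one_right s).smul_right _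
    have h := sub_pow_char_of_commute p hc
    rw [hDp, smul_pow, one_pow] at h
    exact (sub_eq_zero.mp h.symm)
  -- `s` is a scalar
  obtain ⟨μ, hμ⟩ : ∃ μ : F, s = μ • (1 : Module.End F V) := by
    have hm0 : m ≠ 0 := by
      rintro rfl
      rw [Nat.coprime_zero_left] at hmp
      omega
    rcases Nat.lt_or_ge 1 m with hm1 | hm1
    · obtain ⟨k, -, hk⟩ := Nat.exists_mul_mod_eq_one_of_coprime hmp.symm hm1
      have hk' : p * k = m * (p * k / m) + 1 := by
        have := Nat.div_add_mod (p * k) m
        omega
      refine ⟨(g 0 ^ p) ^ k, ?_⟩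
      have h1 : s ^ (p * k) = s := by
        rw [hk', pow_succ, pow_mul, hsm, one_pow, one_mul]
      rw [← h1, pow_mul, hsp, smul_pow, one_pow]
    · have hm1' : m = 1 := by omega
      refine ⟨1, ?_⟩
      rw [one_smul, ← hsm, hm1', pow_one]
  -- `μ ^ 2 = 1`
  obtain ⟨v0, hv0⟩ : ∃ v0, Q v0 ≠ 0 := by
    by_contra hcon
    push Not at hcon
    have h0 : ∀ x : V, x = 0 := fun x => hQ.1 x (fun y => by
      simp [QuadraticMap.polar, hcon])
    obtain ⟨w, hw⟩ := exists_ne (0 : V)
    exact hw (h0 w)
  have hμ2 : μ * μ = 1 := by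
    have h := hs v0
    rw [hμ, LinearMap.smul_apply, Module.End.one_apply, QuadraticMap.map_smul, smul_eq_mul] at h
    have h' : (μ * μ - 1) * Q v0 = 0 := by linear_combination h
    have := (mul_eq_zero.mp h').resolve_right hv0
    linear_combination this
  rcases mul_self_eq_one_iff.mp hμ2 with h1 | h1
  · left
    rw [hμ, h1, one_smul]
  · right
    rw [hμ, h1, neg_smul, one_smul]

end Cfsg.Agent.Lib.Helper85.Spec
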